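import Mathlib

/-!
The Fine–Herstein count of nilpotent matrices over a finite field: `q ^ (n * (n - 1))`.
-/

set_option autoImplicit false

namespace CfsgLib.LinAlg.NilpotentCount

open Matrix Module

variable {F : Type*} [Field F]

theorem pow_card_eq_zero {ι : Type*} [Fintype ι] [DecidableEq ι] {A : Matrix ι ι F}
    (h : IsNilpotent A) : A ^ Fintype.card ι = 0 := by
  have h2 := LinearMap.aeval_self_charpoly (Matrix.toLinAlgEquiv' A)
  rw [IsNilpotent.charpoly_eq_X_pow_finrank (h.map (Matrix.toLinAlgEquiv' (R := F) (n := ι))),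
    map_pow, Polynomial.aeval_X, finrank_fintype_fun_eq_card, ← map_pow] at h2
  exact Matrix.toLinAlgEquiv'.injective (h2.trans (map_zero _).symm)

/-- Block diagonal units. -/
def blockUnit {k l : ℕ} (X : GL (Fin k) F) (Y : GL (Fin l) F) : GL (Fin k ⊕ Fin l) F where
  val := fromBlocks (X : Matrix (Fin k) (Fin k) F) 0 0 (Y : Matrix (Fin l) (Fin l) F)
  inv := fromBlocks ((X⁻¹ : GL (Fin k) F) : Matrix (Fin k) (Fin k) F) 0 0
    ((Y⁻¹ : GL (Fin l) F) : Matrix (Fin l) (Fin l) F)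
  val_inv := by rw [fromBlocks_multiply]; simp
  inv_val := by rw [fromBlocks_multiply]; simp

theorem rank_pow_block {k l : ℕ} (P : GL (Fin k ⊕ Fin l) F) {A : Matrix (Fin k) (Fin k) F}
    (hA : IsNilpotent A) (B : GL (Fin l) F) :
    (((P : Matrix (Fin k ⊕ Fin l) (Fin k ⊕ Fin l) F) *
      fromBlocks A 0 0 (B : Matrix (Fin l) (Fin l) F) *
      ((P⁻¹ : GL (Fin k ⊕ Fin l) F) : Matrix (Fin k ⊕ Fin l) (Fin k ⊕ Fin l) F)) ^ (k + l)).rank = l := by
  classical
  have hA0 : A ^ (k + l) = 0 :=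
    pow_eq_zero_of_le (by rw [Fintype.card_fin]; omega) (pow_card_eq_zero hA)
  rw [Units.conj_pow, fromBlocks_diagonal_pow, hA0,
    rank_mul_eq_left_of_isUnit_det _ _ ((Matrix.isUnit_iff_isUnit_det _).1 (P⁻¹).isUnit),
    rank_mul_eq_right_of_isUnit_det _ _ ((Matrix.isUnit_iff_isUnit_det _).1 P.isUnit),
    show fromBlocks (0 : Matrix (Fin k) (Fin k) F) 0 0 ((B : Matrix (Fin l) (Fin l) F) ^ (k + l)) =
      diagonal (Sum.elim (fun _ => (0 : F)) (fun _ => 1)) *
        fromBlocks (1 : Matrix (Fin k) (Fin k) F) 0 0 ((B : Matrix (Fin l) (Fin l) F) ^ (k + l)) by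
      rw [← fromBlocks_diagonal, fromBlocks_multiply]; simp,
    rank_mul_eq_left_of_isUnit_det, rank_diagonal]
  · have : (Finset.univ.filter fun i : Fin k ⊕ Fin l =>
        Sum.elim (fun _ => (0 : F)) (fun _ => 1) i ≠ 0) = Finset.univ.map Function.Embedding.inr := by
      ext i
      rcases i with i | i <;> simp
    rw [Fintype.card_subtype, this, Finset.card_map, Finset.card_univ, Fintype.card_fin]
  · rw [det_fromBlocks_zero₂₁, det_one, one_mul, det_pow]
    exact ((Matrix.isUnit_iff_isUnit_det _).1 B.isUnit).pow _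

/-- Fitting: a matrix whose stable rank is `l` is conjugate to nilpotent `⊕` invertible. -/
theorem exists_fitting {k l : ℕ} (T : Matrix (Fin k ⊕ Fin l) (Fin k ⊕ Fin l) F)
    (hT : (T ^ (k + l)).rank = l) :
    ∃ (P : GL (Fin k ⊕ Fin l) F) (A : Matrix (Fin k) (Fin k) F) (B : GL (Fin l) F),
      IsNilpotent A ∧ T = (P : Matrix (Fin k ⊕ Fin l) (Fin k ⊕ Fin l) F) *
        fromBlocks A 0 0 (B : Matrix (Fin l) (Fin l) F) *
        ((P⁻¹ : GL (Fin k ⊕ Fin l) F) : Matrix (Fin k ⊕ Fin l) (Fin k ⊕ Fin l) F) := by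
  classical
  set f : Module.End F (Fin k ⊕ Fin l → F) := Matrix.toLinAlgEquiv' T with hf
  set K := LinearMap.ker (f ^ (k + l))
  set R := LinearMap.range (f ^ (k + l))
  have hV : finrank F (Fin k ⊕ Fin l → F) = k + l := by simp
  have hR : finrank F R = l := by
    have h1 : (T ^ (k + l)).mulVecLin = f ^ (k + l) := by rw [hf, ← map_pow]; rfl
    refine Eq.trans ?_ hT
    rw [Matrix.rank, h1]
  have hK : finrank F K = k := by
    have := (f ^ (k + l)).finrank_range_add_finrank_ker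
    rw [hV] at this
    change finrank F R + finrank F K = k + l at this
    omega
  have hdisj : Disjoint K R := by
    rw [Submodule.disjoint_def]
    rintro x hx ⟨y, rfl⟩
    have h2 : y ∈ LinearMap.ker (f ^ (k + l + (k + l))) := by
      rw [LinearMap.mem_ker, pow_add]
      exact hx
    rw [Module.End.ker_pow_eq_ker_pow_finrank_of_le (by rw [hV]; omega), hV] at h2
    exact h2
  have hc : IsCompl K R := Submodule.isCompl_iff_disjoint K R (by rw [hK, hR, hV]) |>.2 hdisj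
  let b : Basis (Fin k ⊕ Fin l) F (Fin k ⊕ Fin l → F) :=
    ((Module.finBasisOfFinrankEq F K hK).prod (Module.finBasisOfFinrankEq F R hR)).map
      (Submodule.prodEquivOfIsCompl K R hc)
  have hbl : ∀ i, b (Sum.inl i) ∈ K := fun i => by simp [b]
  have hbr : ∀ i, b (Sum.inr i) ∈ R := fun i => by simp [b]
  have hreprK : ∀ x ∈ K, ∀ i, b.repr x (Sum.inr i) = 0 := by
    intro x hx i
    simp [b, Submodule.prodEquivOfIsCompl_symm_apply_left K R hc ⟨x, hx⟩]
  have hreprR : ∀ x ∈ R, ∀ i, b.repr x (Sum.inl i) = 0 := by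
    intro x hx i
    simp [b, Submodule.prodEquivOfIsCompl_symm_apply_right K R hc ⟨x, hx⟩]
  have hcomm : ∀ v, f ((f ^ (k + l)) v) = (f ^ (k + l)) (f v) := fun v =>
    LinearMap.congr_fun (Commute.self_pow f (k + l)).eq v
  have hfK : ∀ x ∈ K, f x ∈ K := fun x hx => by
    rw [LinearMap.mem_ker, ← hcomm, LinearMap.mem_ker.1 hx, map_zero]
  have hfR : ∀ x ∈ R, f x ∈ R := by
    rintro x ⟨y, rfl⟩
    exact ⟨f y, (hcomm y).symm⟩
  set M := LinearMap.toMatrix b b f with hM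
  have h12 : ∀ i j, M (Sum.inl i) (Sum.inr j) = 0 := fun i j => by
    rw [hM, LinearMap.toMatrix_apply]; exact hreprR _ (hfR _ (hbr j)) i
  have h21 : ∀ i j, M (Sum.inr i) (Sum.inl j) = 0 := fun i j => by
    rw [hM, LinearMap.toMatrix_apply]; exact hreprK _ (hfK _ (hbl j)) i
  have hMb : M = fromBlocks M.toBlocks₁₁ 0 0 M.toBlocks₂₂ := by
    conv_lhs => rw [← fromBlocks_toBlocks M]
    rw [show M.toBlocks₁₂ = 0 from Matrix.ext h12, show M.toBlocks₂₁ = 0 from Matrix.ext h21]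
  have hA : M.toBlocks₁₁ ^ (k + l) = 0 := by
    refine Matrix.ext fun i j => ?_
    have h1 : (M ^ (k + l)) (Sum.inl i) (Sum.inl j) = 0 := by
      rw [show M ^ (k + l) = LinearMap.toMatrix b b (f ^ (k + l)) from
        (map_pow (LinearMap.toMatrixAlgEquiv b) f (k + l)).symm, LinearMap.toMatrix_apply,
        LinearMap.mem_ker.1 (hbl j), map_zero, Finsupp.zero_apply]
    rw [hMb, fromBlocks_diagonal_pow, fromBlocks_apply₁₁] at h1
    exact h1
  have hB : IsUnit M.toBlocks₂₂ := by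
    rw [← Matrix.mulVec_injective_iff_isUnit]
    intro u v huv
    have h0 : M.toBlocks₂₂ *ᵥ (u - v) = 0 := by rw [mulVec_sub, huv, sub_self]
    set w : Fin k ⊕ Fin l → F := Sum.elim 0 (u - v)
    have hw : M *ᵥ w = 0 := by
      rw [hMb, fromBlocks_mulVec]
      funext i; rcases i with i | i <;> simp [w, h0]
    set x : Fin k ⊕ Fin l → F := b.equivFun.symm w
    have hfx : f x = 0 := by
      have h1 := LinearMap.toMatrix_mulVec_repr b b f x
      have h2 : ⇑(b.repr x) = w := b.equivFun.apply_symm_apply w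
      rw [← hM, h2, hw] at h1
      exact b.repr.map_eq_zero_iff.1 (Finsupp.ext fun i => (congrFun h1 i).symm)
    have hxK : x ∈ K := by
      rw [LinearMap.mem_ker]
      rcases Nat.eq_zero_or_pos (k + l) with h | h
      · funext i
        rcases i with i | i <;> exact absurd i.pos (by omega)
      · rw [← Nat.sub_add_cancel h, pow_succ, Module.End.mul_apply, hfx, map_zero]
    refine sub_eq_zero.1 (funext fun i => ?_)
    have h3 := hreprK x hxK i
    rw [show ⇑(b.repr x) = w from b.equivFun.apply_symm_apply w] at h3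
    exact h3
  refine ⟨⟨(Pi.basisFun F _).toMatrix b, b.toMatrix (Pi.basisFun F _),
    Basis.toMatrix_mul_toMatrix_flip _ _, Basis.toMatrix_mul_toMatrix_flip _ _⟩,
    M.toBlocks₁₁, hB.unit, ⟨k + l, hA⟩, ?_⟩
  show T = (Pi.basisFun F _).toMatrix b * fromBlocks M.toBlocks₁₁ 0 0 M.toBlocks₂₂ *
    b.toMatrix (Pi.basisFun F _)
  rw [← hMb, hM, basis_toMatrix_mul_linearMap_toMatrix_mul_basis_toMatrix,
    LinearMap.toMatrix_eq_toMatrix', hf]
  exact (LinearMap.toMatrix'_toLin' T).symm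

/-- Block diagonal conjugation fibres. -/
theorem fitting_unique {k l : ℕ} {P P' : GL (Fin k ⊕ Fin l) F} {A A' : Matrix (Fin k) (Fin k) F}
    (hA : IsNilpotent A) (hA' : IsNilpotent A') {B B' : GL (Fin l) F}
    (h : (P : Matrix (Fin k ⊕ Fin l) (Fin k ⊕ Fin l) F) *
        fromBlocks A 0 0 (B : Matrix (Fin l) (Fin l) F) *
        ((P⁻¹ : GL (Fin k ⊕ Fin l) F) : Matrix (Fin k ⊕ Fin l) (Fin k ⊕ Fin l) F) =
      (P' : Matrix (Fin k ⊕ Fin l) (Fin k ⊕ Fin l) F) *
        fromBlocks A' 0 0 (B' : Matrix (Fin l) (Fin l) F) *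
        ((P'⁻¹ : GL (Fin k ⊕ Fin l) F) : Matrix (Fin k ⊕ Fin l) (Fin k ⊕ Fin l) F)) :
    ∃ (X : GL (Fin k) F) (Y : GL (Fin l) F), P' = P * blockUnit X Y ∧
      A' = ((X⁻¹ : GL (Fin k) F) : Matrix (Fin k) (Fin k) F) * A * (X : Matrix (Fin k) (Fin k) F) ∧
      B' = Y⁻¹ * B * Y := by
  classical
  set D : GL (Fin k ⊕ Fin l) F := P⁻¹ * P' with hD
  set M := fromBlocks A 0 0 (B : Matrix (Fin l) (Fin l) F)
  set M' := fromBlocks A' 0 0 (B' : Matrix (Fin l) (Fin l) F)
  have hDM : M * (D : Matrix (Fin k ⊕ Fin l) (Fin k ⊕ Fin l) F) =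
      (D : Matrix (Fin k ⊕ Fin l) (Fin k ⊕ Fin l) F) * M' := by
    have h1 := congrArg (fun Z => ((P⁻¹ : GL (Fin k ⊕ Fin l) F) : Matrix _ _ F) * Z *
      (P' : Matrix (Fin k ⊕ Fin l) (Fin k ⊕ Fin l) F)) h
    simp only [← Matrix.mul_assoc, Units.inv_mul, one_mul] at h1
    rw [Matrix.mul_assoc (_ * _ * M') ] at h1
    rw [Units.inv_mul, mul_one] at h1
    rw [hD, Units.val_mul, ← Matrix.mul_assoc]
    exact h1
  set X := (D : Matrix (Fin k ⊕ Fin l) (Fin k ⊕ Fin l) F).toBlocks₁₁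
  set U := (D : Matrix (Fin k ⊕ Fin l) (Fin k ⊕ Fin l) F).toBlocks₁₂
  set W := (D : Matrix (Fin k ⊕ Fin l) (Fin k ⊕ Fin l) F).toBlocks₂₁
  set Y := (D : Matrix (Fin k ⊕ Fin l) (Fin k ⊕ Fin l) F).toBlocks₂₂
  have hDb : (D : Matrix (Fin k ⊕ Fin l) (Fin k ⊕ Fin l) F) = fromBlocks X U W Y :=
    (fromBlocks_toBlocks _).symm
  rw [hDb, fromBlocks_multiply, fromBlocks_multiply, fromBlocks_inj] at hDM
  simp only [Matrix.zero_mul, Matrix.mul_zero, add_zero, zero_add] at hDM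
  obtain ⟨hX, hU, hW, hY⟩ := hDM
  have hpowU : ∀ n, A ^ n * U = U * (B' : Matrix (Fin l) (Fin l) F) ^ n := by
    intro n
    induction n with
    | zero => simp
    | succ n ih => rw [pow_succ, pow_succ, Matrix.mul_assoc, hU, ← Matrix.mul_assoc, ih, Matrix.mul_assoc]
  have hpowW : ∀ n, (B : Matrix (Fin l) (Fin l) F) ^ n * W = W * A' ^ n := by
    intro n
    induction n with
    | zero => simp
    | succ n ih => rw [pow_succ, pow_succ, Matrix.mul_assoc, hW, ← Matrix.mul_assoc, ih, Matrix.mul_assoc]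
  have hU0 : U = 0 := by
    obtain ⟨n, hn⟩ := hA
    have h1 := hpowU n
    rw [hn, Matrix.zero_mul, ← Units.val_pow_eq_pow_val] at h1
    have h2 := congrArg (fun Z => Z * (((B' ^ n)⁻¹ : GL (Fin l) F) : Matrix (Fin l) (Fin l) F)) h1
    simp only [Matrix.zero_mul, Matrix.mul_assoc, Units.mul_inv, Matrix.mul_one] at h2
    exact h2.symm
  have hW0 : W = 0 := by
    obtain ⟨n, hn⟩ := hA'
    have h1 := hpowW n
    rw [hn, Matrix.mul_zero, ← Units.val_pow_eq_pow_val] at h1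
    have h2 := congrArg (fun Z => (((B ^ n)⁻¹ : GL (Fin l) F) : Matrix (Fin l) (Fin l) F) * Z) h1
    simp only [← Matrix.mul_assoc, Units.inv_mul, Matrix.one_mul, Matrix.mul_zero] at h2
    exact h2
  have hdet : IsUnit (X.det * Y.det) := by
    have := (Matrix.isUnit_iff_isUnit_det _).1 D.isUnit
    rwa [hDb, hU0, hW0, det_fromBlocks_zero₂₁] at this
  obtain ⟨uX, uY⟩ := IsUnit.mul_iff.1 hdet
  obtain ⟨Xu, hXu⟩ := (Matrix.isUnit_iff_isUnit_det X).2 uX
  obtain ⟨Yu, hYu⟩ := (Matrix.isUnit_iff_isUnit_det Y).2 uY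
  refine ⟨Xu, Yu, ?_, ?_, ?_⟩
  · rw [show blockUnit Xu Yu = D from Units.ext (by rw [hDb, hU0, hW0, ← hXu, ← hYu]; rfl), hD,
      mul_inv_cancel_left]
  · rw [Matrix.mul_assoc, hXu, hX, ← hXu, ← Matrix.mul_assoc, Units.inv_mul, Matrix.one_mul]
  · refine Units.ext ?_
    rw [Units.val_mul, Units.val_mul, Matrix.mul_assoc, hYu, hY, ← hYu, ← Matrix.mul_assoc,
      Units.inv_mul, Matrix.one_mul]

variable [Fintype F]

/-- The number of nilpotent matrices. -/
noncomputable def nilCount (F : Type*) [Field F] (k : ℕ) : ℕ :=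
  Nat.card {A : Matrix (Fin k) (Fin k) F // IsNilpotent A}

theorem card_stableRank_mul (k l : ℕ) :
    Nat.card {T : Matrix (Fin (k + l)) (Fin (k + l)) F // (T ^ (k + l)).rank = l} *
      Nat.card (GL (Fin k) F) = Nat.card (GL (Fin (k + l)) F) * nilCount F k := by
  classical
  let S := {T : Matrix (Fin k ⊕ Fin l) (Fin k ⊕ Fin l) F // (T ^ (k + l)).rank = l}
  let Dom := GL (Fin k ⊕ Fin l) F × {A : Matrix (Fin k) (Fin k) F // IsNilpotent A} × GL (Fin l) F
  let ψ : Dom → S := fun x => ⟨(x.1 : Matrix (Fin k ⊕ Fin l) (Fin k ⊕ Fin l) F) *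
      fromBlocks x.2.1.1 0 0 (x.2.2 : Matrix (Fin l) (Fin l) F) *
      ((x.1⁻¹ : GL (Fin k ⊕ Fin l) F) : Matrix (Fin k ⊕ Fin l) (Fin k ⊕ Fin l) F),
    rank_pow_block x.1 x.2.1.2 x.2.2⟩
  have hsurj : Function.Surjective ψ := fun T => by
    obtain ⟨P, A, B, hA, hT⟩ := exists_fitting T.1 T.2
    exact ⟨(P, ⟨A, hA⟩, B), Subtype.ext hT.symm⟩
  have hfib : ∀ T : S, Nat.card {x : Dom // ψ x = T} = Nat.card (GL (Fin k) F × GL (Fin l) F) := by
    intro T
    obtain ⟨⟨P, ⟨A, hA⟩, B⟩, rfl⟩ := hsurj T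
    symm
    have hnil : ∀ X : GL (Fin k) F, IsNilpotent
        (((X⁻¹ : GL (Fin k) F) : Matrix (Fin k) (Fin k) F) * A * (X : Matrix (Fin k) (Fin k) F)) := by
      intro X
      obtain ⟨n, hn⟩ := hA
      exact ⟨n, by rw [Units.conj_pow', hn, Matrix.mul_zero, Matrix.zero_mul]⟩
    refine Nat.card_congr (Equiv.ofBijective
      (fun XY => ⟨(P * blockUnit XY.1 XY.2, ⟨_, hnil XY.1⟩, XY.2⁻¹ * B * XY.2), Subtype.ext ?_⟩)
      ⟨?_, ?_⟩)
    · simp only [ψ]
      rw [_root_.mul_inv_rev, Units.val_mul, Units.val_mul]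
      show (P : Matrix (Fin k ⊕ Fin l) (Fin k ⊕ Fin l) F) *
        fromBlocks (XY.1 : Matrix (Fin k) (Fin k) F) 0 0 (XY.2 : Matrix (Fin l) (Fin l) F) * _ *
        (fromBlocks ((XY.1⁻¹ : GL (Fin k) F) : Matrix (Fin k) (Fin k) F) 0 0
          ((XY.2⁻¹ : GL (Fin l) F) : Matrix (Fin l) (Fin l) F) * _) = _
      simp only [← Matrix.mul_assoc]
      congr 1
      simp only [Matrix.mul_assoc (P : Matrix (Fin k ⊕ Fin l) (Fin k ⊕ Fin l) F), fromBlocks_multiply,
        Units.val_mul, Matrix.mul_assoc]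
      simp [← Matrix.mul_assoc]
    · intro a b hab
      have h1 : P * blockUnit a.1 a.2 = P * blockUnit b.1 b.2 :=
        congrArg (fun z => z.1.1) hab
      have h2 := congrArg Units.val (mul_left_cancel h1)
      obtain ⟨e1, -, -, e4⟩ := fromBlocks_inj.1 h2
      exact Prod.ext (Units.ext e1) (Units.ext e4)
    · rintro ⟨⟨P', ⟨A', hA'⟩, B'⟩, hx⟩
      obtain ⟨X, Y, e1, e2, e3⟩ := fitting_unique hA hA' (congrArg Subtype.val hx).symm
      exact ⟨(X, Y), Subtype.ext (Prod.ext e1.symm (Prod.ext (Subtype.ext e2.symm) e3.symm))⟩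
  have hcard := Nat.card_congr (Equiv.sigmaFiberEquiv ψ)
  haveI : Fintype S := Fintype.ofFinite S
  rw [Nat.card_sigma, Finset.sum_congr rfl fun T _ => hfib T, Finset.sum_const, Finset.card_univ,
    ← Nat.card_eq_fintype_card, smul_eq_mul, Nat.card_prod, Nat.card_prod, Nat.card_prod] at hcard
  let e : Matrix (Fin k ⊕ Fin l) (Fin k ⊕ Fin l) F ≃ₐ[F] Matrix (Fin (k + l)) (Fin (k + l)) F :=
    Matrix.reindexAlgEquiv F F finSumFinEquiv
  have hG : Nat.card (GL (Fin k ⊕ Fin l) F) = Nat.card (GL (Fin (k + l)) F) :=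
    Nat.card_congr (Units.mapEquiv e.toRingEquiv.toMulEquiv).toEquiv
  have hS : Nat.card S =
      Nat.card {T : Matrix (Fin (k + l)) (Fin (k + l)) F // (T ^ (k + l)).rank = l} :=
    Nat.card_congr (e.toEquiv.subtypeEquiv fun T => by
      show _ ↔ ((e T) ^ (k + l)).rank = l
      rw [← map_pow, Matrix.reindexAlgEquiv_apply, Matrix.rank_reindex])
  rw [hG, hS] at hcard
  refine Nat.eq_of_mul_eq_mul_right (Nat.card_pos (α := GL (Fin l) F)) ?_
  rw [Nat.mul_assoc, hcard, nilCount, Nat.mul_assoc]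

theorem card_matrix_eq_sum (n : ℕ) :
    (Fintype.card F : ℚ) ^ (n * n) / Nat.card (GL (Fin n) F) =
      ∑ k ∈ Finset.range (n + 1), (nilCount F k : ℚ) / Nat.card (GL (Fin k) F) := by
  classical
  have h1 : (Finset.univ : Finset (Matrix (Fin n) (Fin n) F)).card =
      ∑ l ∈ Finset.range (n + 1),
        (Finset.univ.filter fun T : Matrix (Fin n) (Fin n) F => (T ^ n).rank = l).card :=
    Finset.card_eq_sum_card_fiberwise fun T _ =>
      Finset.mem_coe.2 (Finset.mem_range.2 (Nat.lt_succ_of_le (Matrix.rank_le_width _)))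
  have h2 : (Finset.univ : Finset (Matrix (Fin n) (Fin n) F)).card = Fintype.card F ^ (n * n) := by
    rw [Finset.card_univ, ← Nat.card_eq_fintype_card, Matrix, Nat.card_fun, Nat.card_fun,
      Nat.card_eq_fintype_card, Nat.card_eq_fintype_card, Fintype.card_fin, ← pow_mul]
  have hpos : (Nat.card (GL (Fin n) F) : ℚ) ≠ 0 := Nat.cast_ne_zero.2 Nat.card_pos.ne'
  rw [← Finset.sum_range_reflect, div_eq_iff hpos, Finset.sum_mul]
  have h3 := congrArg (fun x : ℕ => (x : ℚ)) (h2.symm.trans h1)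
  simp only [Nat.cast_pow, Nat.cast_sum] at h3
  rw [h3]
  refine Finset.sum_congr rfl fun l hl => ?_
  have hl' : l ≤ n := Nat.lt_succ_iff.1 (Finset.mem_range.1 hl)
  obtain ⟨k, rfl⟩ : ∃ k, n = k + l := ⟨n - l, by omega⟩
  rw [show k + l + 1 - 1 - l = k by omega, div_mul_eq_mul_div, eq_div_iff
    (Nat.cast_ne_zero.2 (Nat.card_pos (α := GL (Fin k) F)).ne')]
  have h := card_stableRank_mul (F := F) k l
  rw [Nat.card_eq_fintype_card
    (α := {T : Matrix (Fin (k + l)) (Fin (k + l)) F // (T ^ (k + l)).rank = l}),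
    Fintype.card_subtype] at h
  rw [mul_comm (nilCount F k : ℚ)]
  exact_mod_cast h

theorem card_GL_succ (n : ℕ) :
    Nat.card (GL (Fin (n + 1)) F) =
      (Fintype.card F ^ (n + 1) - 1) * Fintype.card F ^ n * Nat.card (GL (Fin n) F) := by
  classical
  rw [Matrix.card_GL_field, Matrix.card_GL_field, Fin.prod_univ_succ]
  simp only [Fin.val_zero, pow_zero, Fin.val_succ]
  rw [mul_assoc]
  congr 1
  rw [Finset.prod_congr rfl fun (i : Fin n) _ => show
    Fintype.card F ^ (n + 1) - Fintype.card F ^ ((i : ℕ) + 1) =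
      Fintype.card F * (Fintype.card F ^ n - Fintype.card F ^ (i : ℕ)) by
    rw [Nat.mul_sub, pow_succ', pow_succ'], Finset.prod_mul_distrib, Finset.prod_const,
    Finset.card_univ, Fintype.card_fin]

/-- **Fine–Herstein.** -/
theorem nilCount_eq (n : ℕ) : nilCount F n = Fintype.card F ^ (n * (n - 1)) := by
  classical
  rcases n with _ | n
  · rw [nilCount, Nat.card_eq_one_iff_exists.2 ⟨⟨0, IsNilpotent.zero⟩,
      fun A => Subtype.ext (Matrix.ext fun i => i.elim0)⟩]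
    simp
  have h := card_matrix_eq_sum (F := F) (n + 1)
  rw [Finset.sum_range_succ, ← card_matrix_eq_sum n, card_GL_succ] at h
  have hq : (1 : ℕ) ≤ Fintype.card F ^ (n + 1) := Nat.one_le_pow _ _ Fintype.card_pos
  have hpos : (Nat.card (GL (Fin n) F) : ℚ) ≠ 0 := Nat.cast_ne_zero.2 Nat.card_pos.ne'
  have h1 : ((Fintype.card F ^ (n + 1) - 1 : ℕ) : ℚ) ≠ 0 := by
    have : 1 < Fintype.card F ^ (n + 1) := Nat.one_lt_pow (by omega) Fintype.one_lt_card
    exact Nat.cast_ne_zero.2 (by omega)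
  have h0 : (Fintype.card F : ℚ) ≠ 0 := Nat.cast_ne_zero.2 Fintype.card_ne_zero
  push_cast [Nat.cast_sub hq] at h h1
  field_simp at h
  have : (nilCount F (n + 1) : ℚ) = (Fintype.card F : ℚ) ^ ((n + 1) * n) := by
    linear_combination -h
  rw [Nat.add_sub_cancel]
  exact_mod_cast this

end CfsgLib.LinAlg.NilpotentCount
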