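import Cfsg.Prelude.Def_ClassicalGeometry
import Cfsg.Agent.Eq.Def_ClassicalGeometry

set_option autoImplicit false

/-! Reflection, Siegel, transvection matrices acting on vectors. -/

namespace CfsgLib.LinAlg.RankOneMat

open Matrix

variable {ι : Type} [Fintype ι] [DecidableEq ι] {F : Type*} [Field F]

theorem polarVec_dot (Q : QuadraticForm F (ι → F)) (v x : ι → F) :
    Cfsg.polarVec ⇑Q v ⬝ᵥ x = QuadraticMap.polar ⇑Q v x := by
  conv_rhs => rw [pi_eq_sum_univ' x, ← QuadraticMap.polarBilin_apply_apply, map_sum]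
  refine Finset.sum_congr rfl fun j _ => ?_
  rw [map_smul, QuadraticMap.polarBilin_apply_apply, smul_eq_mul, Cfsg.polarVec, mul_comm]

theorem reflectionMatrix_mulVec (Q : QuadraticForm F (ι → F)) (v x : ι → F) :
    Cfsg.reflectionMatrix ⇑Q v *ᵥ x = x - ((Q v)⁻¹ * QuadraticMap.polar ⇑Q v x) • v := by
  rw [Cfsg.reflectionMatrix, sub_mulVec, one_mulVec, smul_mulVec, vecMulVec_mulVec, polarVec_dot,
    op_smul_eq_smul, smul_smul]

theorem siegelMatrix_mulVec (Q : QuadraticForm F (ι → F)) (u v : ι → F) (c : F) (x : ι → F) :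
    Cfsg.siegelMatrix ⇑Q u v c *ᵥ x = x + (c * QuadraticMap.polar ⇑Q u x) • v
      - (c * QuadraticMap.polar ⇑Q v x) • u := by
  rw [Cfsg.siegelMatrix, add_mulVec, one_mulVec, smul_mulVec, sub_mulVec, vecMulVec_mulVec,
    vecMulVec_mulVec, polarVec_dot, polarVec_dot, op_smul_eq_smul, op_smul_eq_smul, smul_sub,
    smul_smul, smul_smul, ← add_sub_assoc]

theorem polar_self_field (Q : QuadraticForm F (ι → F)) (v : ι → F) :
    QuadraticMap.polar ⇑Q v v = 2 * Q v := by
  rw [QuadraticMap.polar_self, nsmul_eq_mul, Nat.cast_ofNat]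

theorem reflectionMatrix_det (Q : QuadraticForm F (ι → F)) {v : ι → F} (hv : Q v ≠ 0) :
    (Cfsg.reflectionMatrix ⇑Q v).det = -1 := by
  have h : Cfsg.reflectionMatrix ⇑Q v
      = 1 + Matrix.replicateCol Unit v * Matrix.replicateRow Unit (-(Q v)⁻¹ • Cfsg.polarVec ⇑Q v) := by
    rw [← vecMulVec_eq, Cfsg.reflectionMatrix, vecMulVec_smul, neg_smul, ← sub_eq_add_neg]
  rw [h, Matrix.det_one_add_replicateCol_mul_replicateRow, smul_dotProduct, polarVec_dot,
    polar_self_field, smul_eq_mul]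
  field_simp
  ring

theorem sympTransvection_mulVec (m : ℕ) (v : Fin m ⊕ Fin m → F) (c : F)
    (x : Fin m ⊕ Fin m → F) :
    Cfsg.sympTransvection m v c *ᵥ x = x + (c * Cfsg.sympForm m F x v) • v := by
  rw [Cfsg.sympTransvection, add_mulVec, one_mulVec, smul_mulVec, vecMulVec_mulVec,
    op_smul_eq_smul, smul_smul, Cfsg.sympForm, dotProduct_comm]

end CfsgLib.LinAlg.RankOneMat
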